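import Cfsg.Prelude.Def_CaseTheorems

/-! Generalities for MacWilliams' four-generator theorem. -/

set_option autoImplicit false

namespace Cfsg.Agent.MW

open Subgroup

variable {P : Type*} [Group P] {A B D H K M N W : Subgroup P} {a g s t u v x y : P}

theorem inv_of_sq (h : u ^ 2 = v ^ 2) : u * (u * v⁻¹) * u⁻¹ = (u * v⁻¹)⁻¹ := by
  rw [← mul_assoc, ← sq, h]; group

theorem conj_cm (h : g * s * g⁻¹ = s) : g * s = s * g := mul_inv_eq_iff_eq_mul.1 h

/-- a normal abelian subgroup extended by one element -/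
theorem exists_ext [hB : B.Normal] (cm : ∀ s ∈ B, ∀ t ∈ B, s * t = t * s) (hx : ∀ s ∈ B, s * x = x * s)
    (h2 : x * x ∈ B) (hn : ∀ p, p * x * p⁻¹ * x⁻¹ ∈ B) : ∃ E : Subgroup P, E.Normal ∧ B ≤ E ∧ x ∈ E ∧
      (∀ s ∈ E, ∀ t ∈ E, s * t = t * s) ∧ ∀ y ∈ E, y ∈ B ∨ ∃ s ∈ B, y = s * x := by
  refine ⟨⟨⟨⟨{y | y ∈ B ∨ ∃ s ∈ B, y = s * x}, ?_⟩, .inl (one_mem _)⟩, ?_⟩, ⟨?_⟩, fun _ h => .inl h,
    .inr ⟨1, one_mem _, by simp⟩, ?_, fun _ h => h⟩
  · rintro _ _ (h | ⟨s, hs, rfl⟩) (h' | ⟨t, ht, rfl⟩)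
    · exact .inl (mul_mem h h')
    · exact .inr ⟨_, mul_mem h ht, (mul_assoc _ _ _).symm⟩
    · exact .inr ⟨_, mul_mem hs h', by rw [mul_assoc, ← hx _ h', mul_assoc]⟩
    · exact .inl (by rw [mul_assoc, ← mul_assoc x, ← hx _ ht, mul_assoc]; exact mul_mem hs (mul_mem ht h2))
  · rintro _ (h | ⟨s, hs, rfl⟩)
    · exact .inl (inv_mem h)
    · exact .inr ⟨_, inv_mem (mul_mem hs h2), by rw [← mul_assoc, hx _ hs]; simp [mul_assoc, hx _ hs]⟩
  · rintro _ (h | ⟨s, hs, rfl⟩) p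
    · exact .inl (hB.conj_mem _ h p)
    · exact .inr ⟨_, mul_mem (hB.conj_mem _ hs p) (hn p), by group⟩
  · rintro _ (h | ⟨s, hs, rfl⟩) _ (h' | ⟨t, ht, rfl⟩)
    · exact cm _ h _ h'
    · rw [← mul_assoc, cm _ h _ ht, mul_assoc, mul_assoc, hx _ h]
    · rw [← mul_assoc, cm _ h' _ hs, mul_assoc, mul_assoc, hx _ h']
    · rw [mul_assoc, ← mul_assoc x, ← hx _ ht, ← mul_assoc, ← mul_assoc, cm _ hs _ ht, mul_assoc t s, hx _ hs]
      simp only [mul_assoc, hx _ hs]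

theorem relIndex_le {X : Type*} [Finite X] (r : P → X → Prop) (ex : ∀ x ∈ K, ∃ i, r x i)
    (h : ∀ x ∈ K, ∀ y ∈ K, ∀ i, r x i → r y i → x⁻¹ * y ∈ N) : N.relIndex K ≤ Nat.card X := by
  choose f hf using ex
  refine Nat.card_le_card_of_injective (fun q : K ⧸ N.subgroupOf K => f q.out q.out.2) fun p q e => ?_
  rw [← p.out_eq', ← q.out_eq']
  exact QuotientGroup.eq.2 (h _ p.out.2 _ q.out.2 _ (hf _ p.out.2) ((show f _ _ = f _ _ from e) ▸ hf _ q.out.2))

theorem card_inf (N K : Subgroup P) : Nat.card ↥(N ⊓ K) * N.relIndex K = Nat.card K := by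
  rw [← relIndex_bot_left, ← relIndex_bot_left, ← inf_relIndex_right N,
    relIndex_mul_relIndex _ _ _ bot_le inf_le_right]

variable [Finite P]

theorem card_two (h : ¬ K ≤ N) : 2 * Nat.card ↥(N ⊓ K) ≤ Nat.card K := by
  rw [← card_inf N K, mul_comm]
  have h1 : N.relIndex K ≠ 1 := mt relIndex_eq_one.1 h
  have h0 : N.relIndex K ≠ 0 := index_ne_zero_of_finite
  exact Nat.mul_le_mul_left _ (by omega)

/-- all sections of `X` of exponent two have order at most `k` -/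
def SR (k : ℕ) (X : Subgroup P) : Prop :=
  ∀ H ≤ X, ∀ M ≤ H, (∀ h ∈ H, h ^ 2 ∈ M) → Nat.card H ≤ k * Nat.card M

theorem SR.top [hN : N.Normal] (h : SR 4 N) (hi : N.index ≤ 4 ∨ N.index ≤ 8 ∧ ∃ g, g ^ 2 ∉ N) :
    SR 16 (⊤ : Subgroup P) := fun H _ M hM sq => by
  have h1 := h (N ⊓ H) inf_le_left (N ⊓ M) (inf_le_inf_left _ hM) fun x hx => ⟨pow_mem hx.1 2, sq x hx.2⟩
  have h2 := card_inf N H
  have h3 : N.relIndex H * (H ⊔ N).index = N.index := relIndex_sup_right H N ▸ relIndex_mul_index le_sup_right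
  have h0 : (H ⊔ N).index ≠ 0 := index_ne_zero_of_finite
  have h4 := card_le_of_le (inf_le_right : N ⊓ M ≤ M)
  by_cases c : N.relIndex H ≤ 4
  · nlinarith
  obtain ⟨h8, g, hg⟩ := hi.resolve_left (by intro q; apply c; nlinarith [Nat.pos_of_ne_zero h0])
  have h5 : (H ⊔ N).index = 1 := by
    by_contra q
    have : 2 ≤ (H ⊔ N).index := by omega
    nlinarith
  obtain ⟨x, hx, n, hn, rfl⟩ := mem_sup_of_normal_right.1 ((index_eq_one.1 h5).ge (mem_top g))
  have h6 := card_two (K := M) (N := N) fun q => hg (by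
    have := mul_mem (mul_mem (q (sq x hx)) (hN.conj_mem _ hn x⁻¹)) hn
    simpa [pow_two, mul_assoc] using this)
  nlinarith

theorem SR.of (hP : IsPGroup 2 P) (hW : Nat.card W ≤ 4)
    (h0 : ∀ x ∈ N, ∀ y ∈ N, x ∉ D → y ∉ D → x⁻¹ * y ∈ D)
    (h1 : ∀ u ∈ N, ∀ v ∈ N, u ∈ D → u ^ 2 = v ^ 2 → v ∈ D ∧ u * v⁻¹ ∈ W) : SR 4 N := fun H hH M hM sq => by
  classical
  have k : ∀ T : Set P, (∀ x ∈ D ⊓ H, x ^ 2 ∈ T) → Nat.card ↥(D ⊓ H) ≤ 4 * T.ncard := fun T hT => by
    choose! r hr using fun m (h : ∃ x ∈ D ⊓ H, x ^ 2 = m) => h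
    have := Nat.card_le_card_of_injective (fun x : ↥(D ⊓ H) => ((⟨x * (r (x.1 ^ 2))⁻¹,
      (h1 _ (hH x.2.2) _ (hH (hr _ ⟨_, x.2, rfl⟩).1.2) x.2.1 (hr _ ⟨_, x.2, rfl⟩).2.symm).2⟩,
      ⟨x.1 ^ 2, hT _ x.2⟩) : W × T)) fun x y e => by
        simp only [Prod.mk.injEq, Subtype.mk.injEq] at e
        exact Subtype.ext (by simpa [e.2] using e.1)
    rw [Nat.card_prod] at this
    exact this.trans (Nat.mul_le_mul_right _ hW)
  by_cases c : H ≤ D
  · exact inf_eq_right.2 c ▸ k M fun x hx => sq x hx.2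
  obtain ⟨y, hy, yD⟩ := not_forall₂.1 c
  have h2 := k (M \ {y ^ 2}) fun x hx => ⟨sq x hx.2, fun e => yD (h1 _ (hH hx.2) _ (hH hy) hx.1 e).1⟩
  have h3 := Set.ncard_sdiff_singleton_add_one (s := (M : Set P)) (sq y hy)
  have h4 := card_inf D H
  have h5 : D.relIndex H ≤ 2 := (relIndex_le (fun x (i : Bool) => decide (x ∈ D) = i) (by simp)
    fun x hx y hy i e e' => by
      by_cases q : x ∈ D
      · exact mul_mem (inv_mem q) (by simpa [q] using e'.trans e.symm)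
      · exact h0 x (hH hx) y (hH hy) q (by simpa [q] using e'.trans e.symm)).trans (by simp)
  have h6 := card_inf M H
  rw [inf_eq_left.2 hM] at h6
  obtain ⟨n, hn⟩ := (hP.to_subgroup H).index (M.subgroupOf H)
  have h7 : (M : Set P).ncard = Nat.card M := rfl
  have h8 : M.relIndex H < 2 ^ 3 := by
    by_contra q
    push Not at q
    nlinarith
  have h9 : M.relIndex H ≤ 2 ^ 2 := by
    rw [relIndex, hn] at h8 ⊢
    exact Nat.pow_le_pow_right (by omega) (Nat.lt_succ_iff.1 ((Nat.pow_lt_pow_iff_right (by omega)).1 h8))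
  nlinarith

theorem SR.sect (h : SR 16 (⊤ : Subgroup P)) : Cfsg.SectionalPRankLE 2 4 P := fun H N _ A _ hA => by
  let f := (QuotientGroup.mk' N).comp (A.comap (QuotientGroup.mk' N)).subtype
  let i := H.subtype.comp (A.comap (QuotientGroup.mk' N)).subtype
  have hi : Function.Injective i := H.subtype_injective.comp (subtype_injective _)
  have := h (map i ⊤) le_top (map i f.ker) (map_mono le_top) (by
    rintro _ ⟨x, -, rfl⟩
    exact ⟨x ^ 2, by simpa [f] using hA _ x.2, map_pow i x 2⟩)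
  rw [card_map_of_injective hi, card_map_of_injective hi, card_top, ← f.ker.card_mul_index, index_ker,
    mul_comm] at this
  have e : f.range = A := by
    rw [MonoidHom.range_comp, range_subtype, map_comap_eq_self_of_surjective (QuotientGroup.mk'_surjective N)]
  exact e ▸ Nat.le_of_mul_le_mul_right this Nat.card_pos

section
variable (hP : IsPGroup 2 P)
include hP

theorem exists_four (h : t ^ 2 ≠ 1) : ∃ k, (t ^ k) ^ 2 ≠ 1 ∧ (t ^ k) ^ 4 = 1 := by
  obtain ⟨n, hn⟩ := hP t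
  induction n generalizing t with
  | zero => simp_all
  | succ n ih =>
    by_cases c : t ^ 4 = 1
    · exact ⟨1, by simpa, by simpa⟩
    obtain ⟨k, hk⟩ := ih (t := t ^ 2) (by rwa [← pow_mul]) (by rwa [← pow_mul, ← pow_succ'])
    exact ⟨2 * k, by rwa [pow_mul]⟩

theorem sq_of_inv (ht : t ∈ D) (h : x * t * x⁻¹ = t⁻¹)
    (hD : ∀ s ∈ D, s ^ 4 = 1 → x * s * x⁻¹ = s⁻¹ → s ^ 2 = 1) : t ^ 2 = 1 := by
  by_contra q
  obtain ⟨k, h1, h2⟩ := exists_four hP q
  exact h1 (hD _ (pow_mem ht k) h2 (by rw [← conj_pow, h, inv_pow]))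

theorem ucs_ind {p : P → Prop} (h : ∀ D : Subgroup P, D.Normal → (∀ x ∈ D, p x) →
    ∀ x, (∀ y, y * x * y⁻¹ * x⁻¹ ∈ D) → p x) (h1 : p 1) (x : P) : p x := by
  have := hP.isNilpotent
  obtain ⟨n, hn⟩ := Group.IsNilpotent.nilpotent P
  have : ∀ n, ∀ x ∈ Subgroup.upperCentralSeries P n, p x := fun n => by
    induction n with
    | zero => rintro _ rfl; exact h1
    | succ n ih =>
      exact fun x hx => h _ inferInstance ih x fun y => by
        simpa [commutatorElement_def, mul_assoc] using inv_mem (Subgroup.mem_upperCentralSeries_succ_iff.1 hx y)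
  exact this n x (hn.ge trivial)

theorem exists_central [hW : W.Normal] (h : W ≠ ⊥) : ∃ z ∈ W, z ≠ 1 ∧ z ∈ center P := by
  by_contra q
  push Not at q
  refine h (eq_bot_iff.2 fun x => ucs_ind hP (p := fun x => x ∈ W → x = 1) (fun D _ hD x hx m => ?_)
    (fun _ => rfl) x)
  by_contra n
  exact q x m n (mem_center_iff.2 fun y => conj_cm (mul_inv_eq_one.1 (hD _ (hx y)
    (mul_mem (hW.conj_mem _ m y) (inv_mem m)))))

/-- Alperin's lemma -/
theorem alperin [hA : A.Normal] (cm : ∀ s ∈ A, ∀ t ∈ A, s * t = t * s) (e4 : ∀ s ∈ A, s ^ 4 = 1)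
    (mx : ∀ E : Subgroup P, E.Normal → (∀ s ∈ E, ∀ t ∈ E, s * t = t * s) → (∀ s ∈ E, s ^ 4 = 1) →
      A ≤ E → E ≤ A) (x : P) : x ∈ centralizer (A : Set P) → x ^ 4 = 1 → x ∈ A := by
  refine ucs_ind hP (p := fun x => x ∈ centralizer (A : Set P) → x ^ 4 = 1 → x ∈ A) ?_
    (fun _ _ => one_mem _) x
  have key : ∀ D : Subgroup P, (∀ x ∈ D, x ∈ centralizer (A : Set P) → x ^ 4 = 1 → x ∈ A) → ∀ x,
      (∀ y, y * x * y⁻¹ * x⁻¹ ∈ D) → x ∈ centralizer (A : Set P) → x ^ 4 = 1 → x * x ∈ A → x ∈ A := by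
    intro D hD x hx c h4 h2
    obtain ⟨E, n, le, m, h1, h3⟩ := exists_ext cm c h2 fun p => by
      have c' := (inferInstance : (centralizer (A : Set P)).Normal).conj_mem _ c p
      have k2 : p * x * p⁻¹ * (p * x * p⁻¹) ∈ A := by simpa [mul_assoc] using hA.conj_mem _ h2 p
      have k4 : (p * x * p⁻¹) ^ 4 = 1 := by rw [conj_pow, h4]; simp
      have md := hx p
      generalize p * x * p⁻¹ = y at *
      have e : x * (y * x⁻¹) * x⁻¹ = (y * x⁻¹)⁻¹ * (y * y * (x * x)⁻¹) := by group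
      have w := mul_mem k2 (inv_mem h2)
      have cd := mul_mem c' (inv_mem c)
      have w2 : y * y * (x * x)⁻¹ * (y * y * (x * x)⁻¹) = 1 := by
        rw [mul_assoc, ← mul_assoc (x * x)⁻¹, cm _ (inv_mem h2) _ k2]
        calc _ = y ^ 4 * (x ^ 4)⁻¹ := by simp [pow_succ, mul_assoc]
          _ = 1 := by simp [h4, k4]
      refine hD _ md cd ?_
      rw [show 4 = 2 * 2 from rfl, pow_mul]
      refine sq_of_inv hP (D := D ⊓ centralizer (A : Set P)) (x := x) (pow_mem (mem_inf.2 ⟨md, cd⟩) 2) ?_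
        fun s hs s4 q => ?_
      · rw [← conj_pow, e, sq, mul_assoc, ← mul_assoc (y * y * _), inv_mem cd _ w, mul_assoc, w2, mul_one,
          ← sq, inv_pow]
      · rw [← c _ (hD s hs.1 hs.2 s4), mul_inv_cancel_right] at q
        rw [sq]; nth_rewrite 1 [q]; simp
    refine mx E n h1 (fun s hs => ?_) le m
    rcases h3 s hs with q | ⟨t, ht, rfl⟩
    · exact e4 s q
    · rw [Commute.mul_pow (c t ht), e4 t ht, h4, mul_one]
  intro D n hD x hx c h4
  refine key D hD x hx c h4 (key D hD _ (fun y => ?_) (mul_mem c c) (by rw [← sq, ← pow_mul, mul_comm, pow_mul, h4]; simp)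
    (by rw [← sq, ← sq, ← pow_mul, h4]; exact one_mem _))
  simpa [mul_assoc] using mul_mem (hx y) (n.conj_mem _ (hx y) x)

theorem index_cent [hW : W.Normal] (h4 : Nat.card W ≤ 4) : (centralizer (W : Set P)).index ≤ 2 := by
  by_cases c : W ≤ center P
  · rw [centralizer_eq_top_iff_subset.2 c]; simp
  obtain ⟨w, hw, wZ⟩ := not_forall₂.1 c
  obtain ⟨z, hz, z1, zZ⟩ := exists_central hP (W := W) fun e => c (e ▸ bot_le)
  have h1 := card_two c
  have h2 : 1 < Nat.card ↥(center P ⊓ W) := (one_lt_card_iff_ne_bot _).2 fun e => z1 (e.le ⟨zZ, hz⟩)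
  have h3 := card_inf (center P) W
  have h5 : ((center P).subgroupOf W).index = 2 := by
    have h1 : (center P).relIndex W ≠ 1 := mt relIndex_eq_one.1 c
    have h0 : (center P).relIndex W ≠ 0 := index_ne_zero_of_finite
    have : (center P).relIndex W ≤ 2 := by nlinarith
    change (center P).relIndex W = 2
    omega
  have k : ∀ x ∈ W, x ∉ center P → x * w⁻¹ ∈ center P := fun x hx q =>
    (mul_mem_iff_of_index_two h5 (a := ⟨x, hx⟩) (b := ⟨w, hw⟩⁻¹)).2 (iff_of_false q (by simpa [mem_subgroupOf]))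
  rw [← relIndex_top_right]
  refine (relIndex_le (N := centralizer (W : Set P)) (fun g (i : ↥(center P ⊓ W)) => g * w * g⁻¹ * w⁻¹ = i) (fun g _ =>
    ⟨⟨_, k _ (hW.conj_mem _ hw g) fun q => wZ (by
      simpa [mul_assoc] using (inferInstance : (center P).Normal).conj_mem _ q g⁻¹),
      W.mul_mem (hW.conj_mem _ hw g) (W.inv_mem hw)⟩, rfl⟩) fun x _ y _ i e e' s hs => ?_).trans (by omega)
  have e1 : w * (x⁻¹ * y) = x⁻¹ * y * w := by
    have := mul_right_cancel (e.trans e'.symm)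
    calc _ = x⁻¹ * (x * w * x⁻¹) * y := by group
      _ = _ := by rw [this]; group
  by_cases q : s ∈ center P
  · exact (mem_center_iff.1 q _).symm
  · rw [← inv_mul_cancel_right s w, mul_assoc, e1, ← mul_assoc, ← mem_center_iff.1 (k s hs q), mul_assoc]

theorem aut_idx [hW : W.Normal] [hA : A.Normal] (h4 : Nat.card W ≤ 4)
    (cm : ∀ s ∈ A, ∀ t ∈ A, s * t = t * s) (le : W ≤ A) (ha : a ∈ A) (h : ∀ s ∈ A, s ∈ W ∨ ∃ w ∈ W, s = w * a) :
    (centralizer (A : Set P)).index ≤ 4 ∨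
      (centralizer (A : Set P)).index ≤ 8 ∧ ∃ g, g ^ 2 ∉ centralizer (A : Set P) := by
  have i1 := index_cent hP h4
  have i2 := relIndex_mul_index (centralizer_le (G := P) le)
  have bd : ∀ U : Subgroup P, (∀ k ∈ centralizer (W : Set P), k * a * k⁻¹ * a⁻¹ ∈ U) →
      (centralizer (A : Set P)).relIndex (centralizer (W : Set P)) ≤ Nat.card U := fun U hU =>
    relIndex_le (fun k (i : U) => k * a * k⁻¹ * a⁻¹ = i) (fun k hk => ⟨⟨_, hU k hk⟩, rfl⟩)
      fun x hx y hy i e e' s hs => by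
        have e1 : a * (x⁻¹ * y) = x⁻¹ * y * a := by
          have := mul_right_cancel (e.trans e'.symm)
          calc _ = x⁻¹ * (x * a * x⁻¹) * y := by group
            _ = _ := by rw [this]; group
        have m := mul_mem (inv_mem hx) hy
        rcases h s hs with q | ⟨w, hw, rfl⟩
        exacts [m s q, by rw [mul_assoc, e1, ← mul_assoc, m w hw, mul_assoc]]
  by_cases aW : a ∈ W
  · have := bd ⊥ fun k hk => by rw [← hk a aW]; simp
    rw [card_bot] at this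
    exact .inl (by nlinarith)
  have cj : ∀ p, ∃ w ∈ W, p * a * p⁻¹ = w * a := fun p =>
    (h _ (hA.conj_mem _ ha p)).resolve_left fun q => aW (by simpa [mul_assoc] using hW.conj_mem _ q p⁻¹)
  have mW : ∀ k, k * a * k⁻¹ * a⁻¹ ∈ W := fun k => by
    obtain ⟨w, hw, e⟩ := cj k
    simpa [e]
  have b1 := bd W fun k _ => mW k
  by_cases c : centralizer (W : Set P) = ⊤
  · rw [c, index_top] at i2
    exact .inl (by rw [c] at b1; omega)
  by_cases c2 : ∃ g, g ^ 2 ∉ centralizer (A : Set P)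
  · exact .inr ⟨by nlinarith, c2⟩
  push Not at c2
  obtain ⟨t, ht⟩ : ∃ t, ¬ W ≤ centralizer {t} := by
    by_contra q
    push Not at q
    exact c (eq_top_iff.2 fun t _ w hw => mem_centralizer_singleton_iff.1 (q t hw))
  have b2 := card_two ht
  have b3 := bd (centralizer {t} ⊓ W) fun k hk => ⟨mem_centralizer_singleton_iff.2 (conj_cm ?_).symm, mW k⟩
  · exact .inl (by nlinarith)
  obtain ⟨w, hw, e⟩ := cj t⁻¹
  have n := mul_mem (mul_mem (c2 t) (c2 (t⁻¹ * k))) (inv_mem (c2 k)) _ (hA.conj_mem _ ha k)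
  calc _ = t * (w * (k * a * k⁻¹ * a⁻¹) * w⁻¹) * t⁻¹ := by rw [cm _ (le hw) _ (le (mW k))]; group
    _ = t * (k * (w * a) * k⁻¹ * (w * a)⁻¹) * t⁻¹ := by rw [← mul_assoc k, ← hk w hw]; group
    _ = t ^ 2 * (t⁻¹ * k) ^ 2 * (k ^ 2)⁻¹ * (k * a * k⁻¹) * (t ^ 2 * (t⁻¹ * k) ^ 2 * (k ^ 2)⁻¹)⁻¹ * a⁻¹ := by
      rw [← e]; simp [sq, mul_assoc]
    _ = _ := by rw [← n]; group

end

end Cfsg.Agent.MW
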