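import Cfsg.Agent.MW.A

/-! MacWilliams' four-generator theorem: the case of a normal subgroup `C₄ × C₄`. -/

set_option autoImplicit false

namespace Cfsg.Agent.MW

open Subgroup

variable {P : Type*} [Group P] {A N W : Subgroup P} {a b g h s t u x y z β β' : P}

/-- commutator -/
def γ (g s : P) : P := g * s * g⁻¹ * s⁻¹

structure St (A W : Subgroup P) : Prop where
  hP : IsPGroup 2 P
  nA : A.Normal
  cm : ∀ s ∈ A, ∀ t ∈ A, s * t = t * s
  e4 : ∀ s ∈ A, s ^ 4 = 1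
  alp : ∀ x ∈ centralizer (A : Set P), x ^ 4 = 1 → x ∈ A
  mW : ∀ {x}, x ∈ W ↔ x ∈ A ∧ x ^ 2 = 1
  c4 : Nat.card W = 4
  sq : ∀ x ∈ W, ∃ s ∈ A, s ^ 2 = x
  h8 : ∀ E : Subgroup P, E.Normal → (∀ s ∈ E, ∀ t ∈ E, s * t = t * s) → (∀ s ∈ E, s ^ 2 = 1) →
    Nat.card E ≤ 4

/-- `g` centralizes the roots of `z` and multiplies the other generators by `β` -/
def Ph (A W : Subgroup P) (z g β : P) : Prop := g ∈ centralizer (W : Set P) ∧ β ∈ W ∧
  ∀ s ∈ A, (s ^ 2 = 1 ∨ s ^ 2 = z → γ g s = 1) ∧ (s ^ 2 ≠ 1 → s ^ 2 ≠ z → γ g s = β)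

theorem γ_one : γ g s = 1 ↔ g * s = s * g := by rw [γ, mul_inv_eq_one, mul_inv_eq_iff_eq_mul]
theorem γ_conj (p : P) : γ (p * g * p⁻¹) s = p * γ g (p⁻¹ * s * p) * p⁻¹ := by unfold γ; group
theorem γ_inv (h : g * s * g⁻¹ = s⁻¹) : γ g s = (s ^ 2)⁻¹ := by rw [γ, h, pow_two, mul_inv_rev]
theorem γ_mul (g s : P) : g * s * g⁻¹ = γ g s * s := by simp [γ]
theorem mem_cent : g ∈ centralizer (A : Set P) ↔ ∀ s ∈ A, γ g s = 1 := by
  simp only [γ_one, eq_comm (a := g * _)]; rfl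

section
variable (S : St A W)
include S

theorem St.le (hx : x ∈ W) : x ∈ A := (S.mW.1 hx).1
theorem St.mm (hx : x ∈ W) : x * x = 1 := pow_two x ▸ (S.mW.1 hx).2
theorem St.inv (hx : x ∈ W) : x⁻¹ = x := inv_eq_of_mul_eq_one_right (S.mm hx)
theorem St.sqW (hs : s ∈ A) : s ^ 2 ∈ W := S.mW.2 ⟨pow_mem hs 2, by rw [← pow_mul, S.e4 s hs]⟩
theorem St.nW : W.Normal := ⟨fun x hx p => S.mW.2 ⟨S.nA.conj_mem _ (S.le hx) p, by
  rw [conj_pow, (S.mW.1 hx).2]; simp⟩⟩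
theorem St.msq (hs : s ∈ A) (ht : t ∈ A) : (s * t) ^ 2 = s ^ 2 * t ^ 2 := Commute.mul_pow (S.cm s hs t ht) 2
theorem St.div (hs : s ∈ A) (ht : t ∈ A) (h : s ^ 2 = t ^ 2) : s * t⁻¹ ∈ W :=
  S.mW.2 ⟨mul_mem hs (inv_mem ht), by rw [S.msq hs (inv_mem ht), h]; simp⟩
theorem St.AC (hs : s ∈ A) : s ∈ centralizer (A : Set P) := fun t ht => S.cm t ht s hs
theorem St.CK (hg : g ∈ centralizer (A : Set P)) : g ∈ centralizer (W : Set P) := fun w hw => hg w (S.le hw)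

theorem St.γW (hg : g ∈ centralizer (W : Set P)) (hs : s ∈ A) : γ g s ∈ W :=
  S.div (S.nA.conj_mem _ hs g) hs (by rw [conj_pow, ← hg _ (S.sqW hs)]; simp)

theorem St.γl (hg : g ∈ centralizer (W : Set P)) (hh : h ∈ centralizer (W : Set P)) (hs : s ∈ A) :
    γ (g * h) s = γ g s * γ h s := by
  rw [S.cm _ (S.le (S.γW hg hs)) _ (S.le (S.γW hh hs))]
  calc _ = g * γ h s * s * g⁻¹ * s⁻¹ := by unfold γ; group
    _ = _ := by rw [← hg _ (S.γW hh hs)]; unfold γ; group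

theorem St.γr (hg : g ∈ centralizer (W : Set P)) (hs : s ∈ A) (ht : t ∈ A) :
    γ g (s * t) = γ g s * γ g t := by
  calc _ = γ g s * (s * γ g t) * s⁻¹ := by unfold γ; group
    _ = _ := by rw [S.cm _ hs _ (S.le (S.γW hg ht))]; group

theorem St.γc (hg : g ∈ centralizer (W : Set P)) (hs : s ∈ A) (ht : t ∈ A) (h : s ^ 2 = t ^ 2) :
    γ g s = γ g t := by
  rw [← inv_mul_cancel_right s t, S.γr hg (mul_mem hs (inv_mem ht)) ht,
    γ_one.2 (hg _ (S.div hs ht h)).symm, one_mul]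

theorem St.sqC (hg : g ∈ centralizer (W : Set P)) : g ^ 2 ∈ centralizer (A : Set P) :=
  mem_cent.2 fun s hs => by rw [pow_two, S.γl hg hg hs, S.mm (S.γW hg hs)]

theorem St.cmC (hg : g ∈ centralizer (W : Set P)) (hh : h ∈ centralizer (W : Set P)) :
    h * g * h⁻¹ * g⁻¹ ∈ centralizer (A : Set P) := by
  simpa [pow_two, mul_assoc] using mul_mem (mul_mem (S.sqC hh) (S.sqC (mul_mem (inv_mem hh) hg)))
    (inv_mem (S.sqC hg))

theorem Ph.mul (p : Ph A W z g β) (q : Ph A W z h β') : Ph A W z (g * h) (β * β') :=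
  ⟨mul_mem p.1 q.1, mul_mem p.2.1 q.2.1, fun s hs => by
    rw [S.γl p.1 q.1 hs]
    exact ⟨fun e => by rw [(p.2.2 s hs).1 e, (q.2.2 s hs).1 e, mul_one],
      fun e e' => by rw [(p.2.2 s hs).2 e e', (q.2.2 s hs).2 e e']⟩⟩

theorem Ph.conj (q : Ph A W z g β) (hz : z ∈ center P) (p : P) :
    Ph A W z (p * g * p⁻¹) (p * β * p⁻¹) := by
  have := S.nW
  refine ⟨(inferInstance : (centralizer (W : Set P)).Normal).conj_mem _ q.1 p, S.nW.conj_mem _ q.2.1 p,
    fun s hs => ?_⟩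
  have := q.2.2 _ (S.nA.conj_mem _ hs p⁻¹)
  have e : ∀ x ∈ center P, p⁻¹ * s ^ 2 * p = x ↔ s ^ 2 = x := fun x hx => by
    rw [mul_assoc, inv_mul_eq_iff_eq_mul, mem_center_iff.1 hx, mul_left_inj]
  rw [conj_pow, inv_inv, Ne, Ne, e 1 (one_mem _), e z hz] at this
  rw [γ_conj]
  exact ⟨fun e => by rw [this.1 e]; simp, fun e e' => by rw [this.2 e e']⟩

omit S in
theorem Ph.one (q : Ph A W z g 1) : g ∈ centralizer (A : Set P) := mem_cent.2 fun s hs => by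
  have := q.2.2 s hs
  tauto

theorem Ph.of_cent (hg : g ∈ centralizer (A : Set P)) : Ph A W z g 1 :=
  ⟨S.CK hg, one_mem _, fun s hs => by simp [mem_cent.1 hg s hs]⟩

theorem Ph.inv (q : Ph A W z g β) : Ph A W z g⁻¹ β := by
  refine ⟨inv_mem q.1, q.2.1, fun s hs => ?_⟩
  have := S.γl (inv_mem q.1) q.1 hs
  rw [inv_mul_cancel, γ_one.2 (by simp), eq_comm, mul_eq_one_iff_eq_inv, S.inv (S.γW q.1 hs)] at this
  exact this ▸ q.2.2 s hs

variable [Finite P]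

theorem St.k4 (hx : x ∈ W) (hy : y ∈ W) (x1 : x ≠ 1) (y1 : y ≠ 1) (xy : x ≠ y) (hu : u ∈ W) :
    u = 1 ∨ u = x ∨ u = y ∨ u = x * y := by
  classical
  have : ({1, x, y, x * y} : Set P) = W := Set.eq_of_subset_of_ncard_le
    (by simp [Set.insert_subset_iff, mul_mem, *]) (by
      rw [Set.ncard_insert_of_notMem (by
        simp [x1, y1, eq_comm (a := (1 : P)), mul_eq_one_iff_eq_inv, S.inv hy, xy]),
        Set.ncard_insert_of_notMem (by simp [xy, y1]), Set.ncard_pair (by simp [x1])]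
      exact S.c4.le)
  simpa using this.ge hu

theorem St.exists_out (z : P) : ∃ b ∈ A, b ^ 2 ≠ 1 ∧ b ^ 2 ≠ z := by
  by_contra q
  push Not at q
  have := Set.ncard_le_ncard (show (W : Set P) ⊆ {1, z} from fun w hw => by
    obtain ⟨b, hb, rfl⟩ := S.sq w hw
    by_cases e : b ^ 2 = 1
    exacts [.inl e, .inr (q b hb e)])
  have h2 := Set.ncard_insert_le 1 {z}
  rw [Set.ncard_singleton] at h2
  exact absurd ((S.c4.ge.trans this).trans h2) (by omega)

theorem St.ph (ha : a ∈ A) (a1 : a ^ 2 ≠ 1) (hg : g ∈ centralizer (W : Set P)) (h : γ g a = 1) :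
    ∃ β, Ph A W (a ^ 2) g β := by
  obtain ⟨b, hb, b1, ba⟩ := S.exists_out (a ^ 2)
  refine ⟨γ g b, hg, S.γW hg hb, fun s hs => ⟨?_, fun e e' => ?_⟩⟩
  · rintro (e | e)
    exacts [γ_one.2 (hg _ (S.mW.2 ⟨hs, e⟩)).symm, h ▸ S.γc hg hs ha e]
  rcases S.k4 (S.sqW ha) (S.sqW hb) a1 b1 ba.symm (S.sqW hs) with q | q | q | q
  exacts [absurd q e, absurd q e', S.γc hg hs hb q,
    by rw [S.γc hg hs (mul_mem ha hb) (by rw [q, S.msq ha hb]), S.γr hg ha hb, h, one_mul]]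

/-- an invariant coset without inverted elements consists of elements of large order -/
theorem St.good (hg : g ∈ centralizer (W : Set P)) (gC : g ∉ centralizer (A : Set P))
    (inv : ∀ s ∈ A, g * s * g⁻¹ = s⁻¹ → s ^ 2 = 1)
    (nm : ∀ p, p * g * p⁻¹ * g⁻¹ ∈ centralizer (A : Set P)) : g ^ 4 ≠ 1 := fun h4 => by
  have := S.nW
  have := S.nA
  have m : g ^ 2 ∈ W := S.mW.2 ⟨S.alp _ (S.sqC hg) (by rw [← pow_mul, mul_comm, pow_mul, h4, one_pow]),
    by rwa [← pow_mul]⟩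
  choose r r1 r2 using S.sq
  obtain ⟨x, hx⟩ := Finite.surjective_of_injective (f := fun x : W =>
    (⟨γ g (r x x.2) * x, mul_mem (S.γW hg (r1 x x.2)) x.2⟩ : W)) (fun x y e => by
      have m := mul_mem (r1 x x.2) (r1 y y.2)
      have e' : γ g (r x x.2) * x = γ g (r y y.2) * y := congrArg Subtype.val e
      have := inv _ m (by
        rw [γ_mul, eq_inv_iff_mul_eq_one, mul_assoc, ← pow_two,
          S.msq (r1 x x.2) (r1 y y.2), r2, r2, S.γr hg (r1 x x.2) (r1 y y.2), mul_assoc, ← mul_assoc _ x.1,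
          S.cm _ (S.le (S.γW hg (r1 y y.2))) _ (S.le x.2), mul_assoc, ← mul_assoc, e',
          S.mm (mul_mem (S.γW hg (r1 y y.2)) y.2)])
      rw [S.msq (r1 x x.2) (r1 y y.2), r2, r2, mul_eq_one_iff_eq_inv, S.inv y.2] at this
      exact Subtype.ext this) ⟨_, m⟩
  have hs := r1 x x.2
  have e : γ g (r x x.2) * r x x.2 ^ 2 = g ^ 2 := by rw [r2]; exact congrArg Subtype.val hx
  generalize r x x.2 = s at hs e
  have i2 : s * g * (s * g) = 1 := by
    calc _ = s * (γ g s * s) * g ^ 2 := by unfold γ; simp [pow_two, mul_assoc]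
      _ = 1 := by rw [S.cm _ hs _ (mul_mem (S.le (S.γW hg hs)) hs), mul_assoc _ s s, ← pow_two, e, S.mm m]
  have iK := mul_mem (S.CK (S.AC hs)) hg
  obtain ⟨E, n, le, mE, cm, hE⟩ := exists_ext (B := W) (fun s hs t ht => S.cm s (S.le hs) t (S.le ht)) iK
    (i2 ▸ one_mem _) fun p => by
      have c : p * (s * g) * p⁻¹ * (s * g)⁻¹ ∈ centralizer (A : Set P) := by
        simpa [mul_assoc] using mul_mem (mul_mem (S.AC (S.nA.conj_mem _ hs p)) (nm p)) (inv_mem (S.AC hs))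
      have := sq_of_inv S.hP (inv_mem c) (x := s * g) (by
        rw [mul_inv_rev, inv_inv]
        exact inv_of_sq (by rw [conj_pow, pow_two, i2]; simp) |>.trans (by simp)) fun t ht t4 q =>
        inv t (S.alp t ht t4) (by
          have := S.cm s hs _ (S.nA.conj_mem _ (S.alp t ht t4) g)
          rw [← q, mul_inv_rev, mul_assoc s g, ← mul_assoc, mul_assoc s, this, mul_inv_cancel_right])
      rw [inv_pow, inv_eq_one] at this
      exact S.mW.2 ⟨S.alp _ c (by rw [show 4 = 2 * 2 from rfl, pow_mul, this, one_pow]), this⟩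
  have h1 := S.h8 E n cm fun y hy => by
    rcases hE y hy with q | ⟨w, hw, rfl⟩
    · exact (S.mW.1 q).2
    · rw [Commute.mul_pow (iK w hw), (S.mW.1 hw).2, pow_two, i2, one_mul]
  have h2 := card_two (K := E) (N := W) fun q => gC (by
    simpa using mul_mem (inv_mem (S.AC hs)) (S.AC (S.le (q mE))))
  rw [inf_eq_left.2 le, S.c4] at h2
  omega

theorem St.root (hg : g ∈ centralizer (W : Set P)) (h : g ^ 4 ≠ 1) :
    ∃ k, (g ^ 2) ^ k ∈ A ∧ ((g ^ 2) ^ k) ^ 2 ≠ 1 ∧ γ g ((g ^ 2) ^ k) = 1 := by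
  obtain ⟨k, h1, h2⟩ := exists_four S.hP (t := g ^ 2) (by rwa [← pow_mul])
  exact ⟨k, S.alp _ (pow_mem (S.sqC hg) k) h2, h1, γ_one.2 (by group)⟩

theorem Ph.nil (q : Ph A W z g z) (hz : z ∈ center P) (z1 : z ≠ 1) : g ^ 4 ≠ 1 := by
  refine S.good q.1 (fun c => ?_) (fun s hs e => by_contra fun s1 => ?_) fun p => ?_
  · obtain ⟨b, hb, b1, bz⟩ := S.exists_out z
    exact z1 (((q.2.2 b hb).2 b1 bz).symm.trans (mem_cent.1 c b hb))
  · have := γ_inv e
    rw [S.inv (S.sqW hs)] at this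
    by_cases c : s ^ 2 = z
    exacts [s1 (this.symm.trans ((q.2.2 s hs).1 (.inr c))), c (this.symm.trans ((q.2.2 s hs).2 s1 c))]
  · have := (q.conj S hz p).mul S (q.inv S)
    rw [mem_center_iff.1 hz p, mul_inv_cancel_right, S.mm q.2.1] at this
    exact this.one

/-- the elements acting trivially or as the nilpotent transformation -/
def St.D (hz : z ∈ W) : Subgroup P where
  carrier := {g | Ph A W z g 1 ∨ Ph A W z g z}
  one_mem' := .inl (.of_cent S (one_mem _))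
  mul_mem' := by
    rintro g h (p | p) (q | q) <;> have := p.mul S q
    exacts [.inl (by simpa using this), .inr (by simpa using this), .inr (by simpa using this),
      .inl (S.mm hz ▸ this)]
  inv_mem' h := h.imp (.inv S) (.inv S)

theorem St.Dn (hz : z ∈ W) (hc : z ∈ center P) : (S.D hz).Normal := ⟨fun _ h p =>
  h.imp (fun q => by simpa using q.conj S hc p) fun q => by
    simpa [mem_center_iff.1 hc p] using q.conj S hc p⟩

theorem St.D2 (hz : z ∈ W) (z1 : z ≠ 1) (p : Ph A W z g β) (q : Ph A W z h β') (h1 : g ∉ S.D hz)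
    (h2 : h ∉ S.D hz) : g * h ∈ S.D hz := by
  have := p.mul S q
  have n : ∀ {g β}, Ph A W z g β → g ∉ S.D hz → β ≠ 1 ∧ β ≠ z := fun p h =>
    ⟨fun e => h (.inl (e ▸ p)), fun e => h (.inr (e ▸ p))⟩
  rcases S.k4 hz p.2.1 z1 (n p h1).1 (n p h1).2.symm q.2.1 with e | e | e | e
  exacts [absurd e (n q h2).1, absurd e (n q h2).2, .inl (by rwa [e, S.mm p.2.1] at this),
    .inr (by rwa [e, S.cm _ (S.le hz) _ (S.le p.2.1), ← mul_assoc, S.mm p.2.1, one_mul] at this)]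

theorem St.sr (hz : z ∈ W) (z1 : z ≠ 1) (hN : ∀ g ∈ N, ∃ β, Ph A W z g β)
    (gd : ∀ t ∈ N, t ∉ centralizer (A : Set P) → t ^ 4 ≠ 1) : SR 4 N := by
  refine .of S.hP S.c4.le (D := S.D hz) (fun x hx y hy h1 h2 => ?_) fun u hu v hv uD e => ?_
  · obtain ⟨β, p⟩ := hN x hx
    obtain ⟨β', q⟩ := hN y hy
    exact S.D2 hz z1 (p.inv S) q (by simpa) h2
  have i := inv_of_sq e
  have m := mul_mem hu (inv_mem hv)
  have c : u * v⁻¹ ∈ centralizer (A : Set P) := by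
    by_contra c
    obtain ⟨β, p⟩ := hN _ m
    obtain ⟨β', q⟩ := hN _ hu
    obtain ⟨k, h1, h2, h3⟩ := S.root p.1 (gd _ m c)
    have := γ_inv (g := u) (s := ((u * v⁻¹) ^ 2) ^ k) (by rw [← conj_pow, ← conj_pow, i, inv_pow, inv_pow])
    by_cases r : (((u * v⁻¹) ^ 2) ^ k) ^ 2 = z
    · exact h2 (inv_eq_one.1 (this.symm.trans ((q.2.2 _ h1).1 (.inr r))))
    · exact c (Ph.one (h3.symm.trans ((p.2.2 _ h1).2 h2 r) ▸ p))
  have h2 := sq_of_inv S.hP c i fun s hs s4 q => by_contra fun s1 => by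
    have hs := S.alp s hs s4
    have := γ_inv q
    rw [S.inv (S.sqW hs)] at this
    by_cases r : s ^ 2 = z
    · exact s1 (this.symm.trans (uD.elim (fun q => (q.2.2 s hs).1 (.inr r)) fun q => (q.2.2 s hs).1 (.inr r)))
    · exact uD.elim (fun q => s1 (this.symm.trans ((q.2.2 s hs).2 s1 r)))
        fun q => r (this.symm.trans ((q.2.2 s hs).2 s1 r))
  exact ⟨by simpa using mul_mem (inv_mem (show _ ∈ S.D hz from .inl (.of_cent S c))) uD,
    S.mW.2 ⟨S.alp _ c (by rw [show 4 = 2 * 2 from rfl, pow_mul, h2, one_pow]), h2⟩⟩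

theorem St.top (hz : z ∈ W) (z1 : z ≠ 1) (hc : z ∈ center P)
    (gd : ∀ t β, Ph A W z t β → t ∉ centralizer (A : Set P) → t ^ 4 ≠ 1) : SR 16 (⊤ : Subgroup P) := by
  have := S.nW
  obtain ⟨a, ha, rfl⟩ := S.sq z hz
  obtain ⟨E, n, le, mE, cm, hE⟩ := exists_ext (B := W) (fun s hs t ht => S.cm s (S.le hs) t (S.le ht))
    (S.CK (S.AC ha)) (pow_two a ▸ hz) fun p => S.div (S.nA.conj_mem _ ha p) ha (by
      rw [conj_pow, mem_center_iff.1 hc p, mul_inv_cancel_right])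
  have hN : ∀ g ∈ centralizer (E : Set P), ∃ β, Ph A W (a ^ 2) g β := fun g hg =>
    S.ph ha z1 (centralizer_le le hg) (γ_one.2 (hg a mE).symm)
  exact (S.sr hz z1 hN fun t ht => (hN t ht).elim (gd t)).top (aut_idx S.hP S.c4.le cm le mE hE)

end

end Cfsg.Agent.MW
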