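import Cfsg.Agent.MW.B

/-! MacWilliams' four-generator theorem. -/

set_option autoImplicit false

namespace Cfsg.Agent.MW

open Subgroup

variable {P : Type*} [Group P] [Finite P] {A W : Subgroup P} {a b g h n p x y z β : P}

section
variable (S : St A W)
include S

theorem St.nc (hp : p ∉ centralizer (W : Set P)) : SR 16 (⊤ : Subgroup P) := by
  have := S.nW
  obtain ⟨z, hz, z1, hc⟩ := exists_central S.hP (W := W) fun e => by simpa [e] using S.c4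
  refine S.top hz z1 hc fun t β q tC h4 => ?_
  have b1 : β ≠ 1 := fun e => tC (Ph.one (e ▸ q))
  have bz : β ≠ z := fun e => Ph.nil S (e ▸ q) hc z1 h4
  have q' := q.conj S hc p
  have e : p * β * p⁻¹ = z * β := by
    rcases S.k4 hz q.2.1 z1 b1 bz.symm q'.2.1 with e | e | e | e
    · exact absurd (by simpa using e) b1
    · rw [mul_inv_eq_iff_eq_mul, ← mem_center_iff.1 hc, mul_right_inj] at e; exact absurd e bz
    · refine absurd (fun w hw => ?_) hp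
      rcases S.k4 hz q.2.1 z1 b1 bz.symm hw with rfl | rfl | rfl | rfl
      exacts [by simp, (mem_center_iff.1 hc p).symm, (conj_cm e).symm,
        by rw [mul_assoc, ← conj_cm e, ← mul_assoc, ← mem_center_iff.1 hc, mul_assoc]]
    · exact e
  have qx := q.mul S q'
  rw [e, S.cm _ (S.le hz) _ (S.le q.2.1), ← mul_assoc β β, S.mm q.2.1, one_mul] at qx
  have sq : ∀ {t}, t ∈ centralizer (W : Set P) → t ^ 4 = 1 → t ^ 2 ∈ W := fun ht h => S.mW.2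
    ⟨S.alp _ (S.sqC ht) (by rw [← pow_mul, mul_comm, pow_mul, h, one_pow]), by rwa [← pow_mul]⟩
  have w := mul_mem (sq q.1 h4) (sq q'.1 (by rw [conj_pow, h4]; simp))
  obtain ⟨k, h1, h2, h3⟩ := S.root qx.1 (qx.nil S hc z1)
  have i : t * (t * (p * t * p⁻¹)) ^ 2 * t⁻¹ = ((t * (p * t * p⁻¹)) ^ 2)⁻¹ := by
    have m := inv_mem qx.1
    generalize p * t * p⁻¹ = u at w m ⊢
    rw [← conj_pow, show t * (t * u) * t⁻¹ = t ^ 2 * u ^ 2 * (t * u)⁻¹ by simp [pow_two, mul_assoc],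
      Commute.mul_pow (m _ w), (S.mW.1 w).2, one_mul, inv_pow]
  have := γ_inv (g := t) (s := ((t * (p * t * p⁻¹)) ^ 2) ^ k) (by rw [← conj_pow, i, inv_pow])
  exact h2 (inv_eq_one.1 (this.symm.trans ((q.2.2 _ h1).1 (.inr (by_contra fun r =>
    z1 (((qx.2.2 _ h1).2 h2 r).symm.trans h3))))))

variable (K : ∀ p, p ∈ centralizer (W : Set P))
include K

theorem St.three (ha : a ∈ A) (hb : b ∈ A) (a1 : a ^ 2 ≠ 1) (b1 : b ^ 2 ≠ 1) (ab : a ^ 2 ≠ b ^ 2)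
    (h1 : γ g a ≠ 1 ∧ γ g a ≠ a ^ 2) (h2 : γ g b ≠ 1 ∧ γ g b ≠ b ^ 2)
    (h3 : γ g a * γ g b ≠ 1 ∧ γ g a * γ g b ≠ a ^ 2 * b ^ 2) : False := by
  have k : ∀ s ∈ A, s ^ 2 ≠ 1 → γ g s ≠ 1 ∧ γ g s ≠ s ^ 2 := fun s hs s1 => by
    rcases S.k4 (S.sqW ha) (S.sqW hb) a1 b1 ab (S.sqW hs) with q | q | q | q
    exacts [absurd q s1, by rwa [S.γc (K g) hs ha q, q], by rwa [S.γc (K g) hs hb q, q],
      by rwa [S.γc (K g) hs (mul_mem ha hb) (by rw [q, S.msq ha hb]), q, S.γr (K g) ha hb]]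
  obtain ⟨n, h4, h5, h6⟩ := S.root (K g) (S.good (K g) (fun c => h1.1 (mem_cent.1 c a ha))
    (fun s hs e => by_contra fun s1 => (k s hs s1).2 (by rw [γ_inv e, S.inv (S.sqW hs)]))
    fun p => S.cmC (K g) (K p))
  exact (k _ h4 h5).1 h6

theorem St.nil (hz : z ∈ W) (z1 : z ≠ 1) (q : Ph A W z n z) (q' : Ph A W z y β) (b1 : β ≠ 1)
    (bz : β ≠ z) : SR 16 (⊤ : Subgroup P) := by
  have hc : z ∈ center P := mem_center_iff.2 fun p => (K p z hz).symm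
  have := S.Dn hz hc
  obtain ⟨a, ha, rfl⟩ := S.sq z hz
  have onto : ∀ δ ∈ W, ∃ g, Ph A W (a ^ 2) g δ := fun δ hδ => by
    rcases S.k4 hz q'.2.1 z1 b1 bz.symm hδ with rfl | rfl | rfl | rfl
    exacts [⟨_, .of_cent S (one_mem _)⟩, ⟨_, q⟩, ⟨_, q'⟩, ⟨_, q.mul S q'⟩]
  have key : ∀ p, γ p a ≠ 1 → γ p a = a ^ 2 := fun p h1 => by_contra fun h2 => by
    have m := S.γW (K p) ha
    obtain ⟨b, hb, e⟩ := S.sq _ (mul_mem m hz)
    have b1 : b ^ 2 ≠ 1 := by rwa [e, Ne, mul_eq_one_iff_eq_inv, S.inv hz]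
    have ab : a ^ 2 ≠ b ^ 2 := by simpa [e] using h1
    obtain ⟨g, hg⟩ := onto _ (mul_mem (S.γW (K p) hb) hz)
    have e1 : γ (p * g) a = γ p a := by rw [S.γl (K p) (K g) ha, (hg.2.2 a ha).1 (.inr rfl), mul_one]
    have e2 : γ (p * g) b = a ^ 2 := by
      rw [S.γl (K p) (K g) hb, (hg.2.2 b hb).2 b1 ab.symm, ← mul_assoc, S.mm (S.γW (K p) hb), one_mul]
    refine S.three K ha hb z1 b1 ab (g := p * g) (e1 ▸ ⟨h1, h2⟩) (e2 ▸ ⟨z1, ab⟩) ?_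
    rw [e1, e2, ← e]
    exact ⟨b1, by simpa using z1⟩
  classical
  have mC : ∀ {p}, p ∈ centralizer {a} ↔ γ p a = 1 := mem_centralizer_singleton_iff.trans γ_one.symm
  have i1 : (centralizer {a}).relIndex ⊤ ≤ 2 := (relIndex_le (fun p (i : Bool) => decide (γ p a = 1) = i)
    (by simp) fun x _ y _ i e e' => mC.2 (by
      have e1 := S.γl (K x) (K (x⁻¹ * y)) ha
      rw [mul_inv_cancel_left, show γ y a = γ x a by
        by_cases c : γ x a = 1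
        exacts [c ▸ by simpa [c] using e'.trans e.symm,
          by rw [key x c, key y (by simpa [c] using e'.trans e.symm)]]] at e1
      simpa using e1)).trans (by simp)
  have i2 : (S.D hz).relIndex (centralizer {a}) ≤ 2 := (relIndex_le (fun p (i : Bool) =>
    decide (p ∈ S.D hz) = i) (by simp) fun x hx y hy i e e' => by
      by_cases c : x ∈ S.D hz
      · exact mul_mem (inv_mem c) (by simpa [c] using e'.trans e.symm)
      obtain ⟨β, p⟩ := S.ph ha z1 (K x) (mC.1 hx)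
      obtain ⟨β', p'⟩ := S.ph ha z1 (K y) (mC.1 hy)
      exact S.D2 hz z1 (p.inv S) p' (by simpa) (by simpa [c] using e'.trans e.symm)).trans (by simp)
  have i3 := relIndex_mul_index (H := S.D hz) (K := centralizer {a}) fun g hg =>
    mC.2 (hg.elim (fun p => (p.2.2 a ha).1 (.inr rfl)) fun p => (p.2.2 a ha).1 (.inr rfl))
  rw [relIndex_top_right] at i1
  exact (S.sr (N := S.D hz) hz z1 (fun g hg => Or.elim hg (⟨_, ·⟩) (⟨_, ·⟩)) fun t ht c =>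
    Ph.nil S (Or.resolve_left ht fun p => c (Ph.one p)) hc z1).top (.inl (by nlinarith))

theorem St.cen : SR 16 (⊤ : Subgroup P) := by
  by_contra F
  have ex : ∀ z ∈ W, z ≠ 1 → ∃ t β, Ph A W z t β ∧ β ≠ 1 ∧ β ≠ z := fun z hz z1 => by
    have hc : z ∈ center P := mem_center_iff.2 fun p => (K p z hz).symm
    by_contra q
    push Not at q
    exact F (S.top hz z1 hc fun t β p c => Ph.nil S (q t β p (fun e => c (Ph.one (e ▸ p))) ▸ p) hc z1)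
  have third : ∀ {x y u}, x ∈ W → y ∈ W → u ∈ W → x ≠ 1 → y ≠ 1 → u ≠ 1 → x ≠ y → u ≠ x → u ≠ y →
      x * y = u := fun hx hy hu x1 y1 u1 xy ux uy => by
    have := S.k4 hx hy x1 y1 xy hu
    tauto
  have pair : ∀ {x y g h β β'}, x ∈ W → y ∈ W → x ≠ 1 → y ≠ 1 → x ≠ y → Ph A W x g β → Ph A W y h β' →
      β ≠ 1 → β ≠ x → β' ≠ y → β ≠ β' := by
    rintro x y g h β _ hx hy x1 y1 xy p q b1 bx bY rfl
    obtain ⟨t, δ, r, d1, d2⟩ := ex β p.2.1 b1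
    refine F (S.nil K p.2.1 b1 (n := g * h) ⟨K _, p.2.1, fun s hs => ?_⟩ r d1 d2)
    have h1 := p.2.2 s hs
    have h2 := q.2.2 s hs
    rw [S.γl (K g) (K h) hs]
    refine ⟨?_, fun s1 s2 => ?_⟩
    · rintro (e | e)
      · rw [h1.1 (.inl e), h2.1 (.inl e), mul_one]
      · rw [h1.2 (e ▸ b1) (e ▸ bx), h2.2 (e ▸ b1) (e ▸ bY), S.mm p.2.1]
    rcases S.k4 hx hy x1 y1 xy (S.sqW hs) with e | e | e | e
    · exact absurd e s1
    · rw [h1.1 (.inr e), h2.2 s1 (e ▸ xy), one_mul]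
    · rw [h2.1 (.inr e), h1.2 s1 (e ▸ xy.symm), mul_one]
    · exact absurd (e.trans (third hx hy p.2.1 x1 y1 b1 xy bx bY)) s2
  obtain ⟨a, ha, a1, -⟩ := S.exists_out 1
  obtain ⟨b, hb, b1, ba⟩ := S.exists_out (a ^ 2)
  have hx := S.sqW ha
  have hy := S.sqW hb
  have u1 : a ^ 2 * b ^ 2 ≠ 1 := by rw [Ne, mul_eq_one_iff_eq_inv, S.inv hy]; exact ba.symm
  have ux : a ^ 2 ≠ a ^ 2 * b ^ 2 := by simpa
  have uy : b ^ 2 ≠ a ^ 2 * b ^ 2 := by simpa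
  obtain ⟨g1, β1, p1, n1⟩ := ex _ hx a1
  obtain ⟨g2, β2, p2, n2⟩ := ex _ hy b1
  obtain ⟨g3, β3, p3, n3⟩ := ex _ (mul_mem hx hy) u1
  have d12 := pair hx hy a1 b1 ba.symm p1 p2 n1.1 n1.2 n2.2
  have d13 := pair hx (mul_mem hx hy) a1 u1 ux p1 p3 n1.1 n1.2 n3.2
  have d23 := pair hy (mul_mem hx hy) b1 u1 uy p2 p3 n2.1 n2.2 n3.2
  have e1 : γ (g1 * g2 * g3) a = β1 := by
    rw [S.γl (K _) (K _) ha, S.γl (K _) (K _) ha, (p1.2.2 a ha).1 (.inr rfl), (p2.2.2 a ha).2 a1 ba.symm,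
      (p3.2.2 a ha).2 a1 ux, one_mul, third p2.2.1 p3.2.1 p1.2.1 n2.1 n3.1 n1.1 d23 d12 d13]
  have e2 : γ (g1 * g2 * g3) b = β2 := by
    rw [S.γl (K _) (K _) hb, S.γl (K _) (K _) hb, (p2.2.2 b hb).1 (.inr rfl), (p1.2.2 b hb).2 b1 ba,
      (p3.2.2 b hb).2 b1 uy, mul_one, third p1.2.1 p3.2.1 p2.2.1 n1.1 n3.1 n2.1 d13 d12.symm d23]
  exact S.three K ha hb a1 b1 ba.symm (e1 ▸ n1) (e2 ▸ n2) (by
    rwa [e1, e2, third p1.2.1 p2.2.1 p3.2.1 n1.1 n2.1 n3.1 d12 d13.symm d23.symm])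

end

theorem main (hP : IsPGroup 2 P) (h8 : ∀ E : Subgroup P, E.Normal → (∀ s ∈ E, ∀ t ∈ E, s * t = t * s) →
    (∀ s ∈ E, s ^ 2 = 1) → Nat.card E ≤ 4) : SR 16 (⊤ : Subgroup P) := by
  obtain ⟨A, ⟨nA, cm, e4⟩, mx⟩ := exists_maximal_of_wellFoundedGT (fun A : Subgroup P => A.Normal ∧
    (∀ s ∈ A, ∀ t ∈ A, s * t = t * s) ∧ ∀ s ∈ A, s ^ 4 = 1) ⟨⊥, inferInstance, by simp, by simp⟩
  have alp := alperin hP cm e4 fun E h1 h2 h3 => mx ⟨h1, h2, h3⟩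
  have msq : ∀ s ∈ A, ∀ t ∈ A, (s * t) ^ 2 = s ^ 2 * t ^ 2 := fun s hs t ht => Commute.mul_pow (cm s hs t ht) 2
  obtain ⟨W, mW⟩ : ∃ W : Subgroup P, ∀ {x}, x ∈ W ↔ x ∈ A ∧ x ^ 2 = 1 :=
    ⟨⟨⟨⟨{x | x ∈ A ∧ x ^ 2 = 1}, fun h h' => ⟨mul_mem h.1 h'.1, by
      rw [msq _ h.1 _ h'.1, h.2, h'.2, mul_one]⟩⟩, one_mem _, one_pow _⟩,
      fun h => ⟨inv_mem h.1, by rw [inv_pow, h.2, inv_one]⟩⟩, Iff.rfl⟩
  have nW : W.Normal := ⟨fun x hx p => mW.2 ⟨nA.conj_mem _ (mW.1 hx).1 p, by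
    rw [conj_pow, (mW.1 hx).2]; simp⟩⟩
  have c4 := h8 W nW (fun s hs t ht => cm s (mW.1 hs).1 t (mW.1 ht).1) fun s hs => (mW.1 hs).2
  have sW : ∀ s ∈ A, s ^ 2 ∈ W := fun s hs => mW.2 ⟨pow_mem hs 2, by rw [← pow_mul, e4 s hs]⟩
  by_cases c : ∃ a ∈ A, ∃ b ∈ A, a ^ 2 ≠ 1 ∧ b ^ 2 ≠ 1 ∧ a ^ 2 ≠ b ^ 2
  · obtain ⟨a, ha, b, hb, a1, b1, ab⟩ := c
    have i : (b ^ 2)⁻¹ = b ^ 2 := inv_eq_of_mul_eq_one_right (by rw [← pow_add, e4 b hb])
    have k : ({1, a ^ 2, b ^ 2, a ^ 2 * b ^ 2} : Set P).ncard = 4 := by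
      rw [Set.ncard_insert_of_notMem (by simp [a1, b1, eq_comm (a := (1 : P)), mul_eq_one_iff_eq_inv, i, ab]),
        Set.ncard_insert_of_notMem (by simp [ab, b1]), Set.ncard_pair (by simp [a1])]
    have e : ({1, a ^ 2, b ^ 2, a ^ 2 * b ^ 2} : Set P) = W := Set.eq_of_subset_of_ncard_le
      (by simp [Set.insert_subset_iff, mul_mem, sW a ha, sW b hb]) (by rw [k]; exact c4)
    have S : St A W := ⟨hP, nA, cm, e4, alp, mW, by rw [← k, e]; rfl, fun x hx => by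
      rcases e.ge hx with rfl | rfl | rfl | rfl
      exacts [⟨1, one_mem _, one_pow _⟩, ⟨a, ha, rfl⟩, ⟨b, hb, rfl⟩, ⟨_, mul_mem ha hb, msq a ha b hb⟩], h8⟩
    by_cases K : ∀ p, p ∈ centralizer (W : Set P)
    exacts [S.cen K, (not_forall.1 K).elim fun _ => S.nc]
  push Not at c
  obtain ⟨a, ha, h⟩ : ∃ a ∈ A, ∀ s ∈ A, s ∈ W ∨ ∃ w ∈ W, s = w * a := by
    by_cases q : ∀ s ∈ A, s ^ 2 = 1
    · exact ⟨1, one_mem _, fun s hs => .inl (mW.2 ⟨hs, q s hs⟩)⟩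
    push Not at q
    obtain ⟨a, ha, a1⟩ := q
    refine ⟨a, ha, fun s hs => or_iff_not_imp_left.2 fun n => ⟨s * a⁻¹, mW.2 ⟨mul_mem hs (inv_mem ha), ?_⟩, by simp⟩⟩
    rw [msq _ hs _ (inv_mem ha), c s hs a ha (fun e => n (mW.2 ⟨hs, e⟩)) a1]; simp
  have ai := aut_idx hP c4 cm (fun _ h => (mW.1 h).1) ha h
  have := normal_centralizer (H := A)
  refine (SR.of (N := centralizer (A : Set P)) (D := centralizer (A : Set P)) hP c4
    (fun x hx _ _ n _ => absurd hx n) fun u hu v hv _ e => ⟨hv, ?_⟩).top ai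
  have m := mul_mem hu (inv_mem hv)
  have := sq_of_inv hP m (inv_of_sq e) fun s hs s4 q => by
    rw [← hu s (alp s hs s4), mul_inv_cancel_right] at q
    rw [pow_two]; nth_rewrite 1 [q]; simp
  exact mW.2 ⟨alp _ m (by rw [show 4 = 2 * 2 from rfl, pow_mul, this, one_pow]), this⟩

end Cfsg.Agent.MW
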